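import Cfsg.Agent.CharBasics.ItoConverse
import Cfsg.Agent.CharBasics.Burnside
import Cfsg.Agent.BrauerInd.Galois
import Mathlib.GroupTheory.Perm.Cycle.Type
import Mathlib.RingTheory.ZMod.UnitsCyclic

/-!
# Groups all of whose character degrees are less than a prime `p`

Such a group is `p`-solvable.  In a simple group the map `χ ↦ χ (g ^ k)`, with `k` a primitive root modulo the
`p`-part and `1` modulo the rest of the order, fixes a non-principal character; its degree is `p - 1` and the Sylow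
subgroup is self-centralising of order `p`.  The moved characters then fall into orbits of a length dividing
`p - 1`, and the sum of the squares of the degrees contradicts `p - 1 ∣ |G|`.
-/

set_option autoImplicit false
set_option linter.style.haveILetI false
set_option linter.unusedSectionVars false

namespace CfsgLib.SmallDegrees

open Cfsg CfsgLib.CharBasics

universe u

variable {G : Type u} [Group G] [Finite G]

theorem pow_congr' {M : Type*} [Monoid M] {x : M} {a b n : ℕ} (hx : x ^ n = 1) (h : a ≡ b [MOD n]) :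
    x ^ a = x ^ b := by
  rw [pow_eq_pow_mod a hx, pow_eq_pow_mod b hx, h]

theorem modEq_of_pow_eq {x : ℂ} {a b n : ℕ} (hn : 0 < n) (hx : x ^ n = 1) (h : x ^ a = x ^ b) :
    a ≡ b [MOD orderOf x] :=
  (isOfFinOrder_iff_pow_eq_one.2 ⟨n, hn, hx⟩).pow_eq_pow_iff_modEq.1 h

/-- Raising to a power prime to the order, on characters. -/
noncomputable def powPerm {k : ℕ} (hk : k.Coprime (Nat.card G)) : Equiv.Perm (IrrCharacter G) :=
  haveI := finite_irrCharacter (G := G)
  Equiv.ofBijective (fun χ => ⟨fun g => (χ : G → ℂ) (g ^ k), BrauerInd.isIrr_pow hk χ.2⟩) <| by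
    refine Finite.injective_iff_bijective.1 fun χ ψ h => Subtype.ext (funext fun g => ?_)
    obtain ⟨m, hm⟩ := exists_pow_eq_self_of_coprime (hk.coprime_dvd_right (orderOf_dvd_natCard g))
    have := congrFun (congrArg Subtype.val h) (g ^ m)
    simp only at this
    rwa [← pow_mul, mul_comm, pow_mul, hm] at this

theorem powPerm_apply {k : ℕ} (hk : k.Coprime (Nat.card G)) (χ : IrrCharacter G) (g : G) :
    (powPerm hk χ : G → ℂ) g = (χ : G → ℂ) (g ^ k) := rfl

theorem powPerm_iterate {k : ℕ} (hk : k.Coprime (Nat.card G)) (i : ℕ) (χ : IrrCharacter G) (g : G) :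
    ((powPerm hk ^ i) χ : G → ℂ) g = (χ : G → ℂ) (g ^ k ^ i) := by
  induction i generalizing g with
  | zero => simp
  | succ i ih => rw [pow_succ', Equiv.Perm.mul_apply, powPerm_apply, ih, ← pow_mul, pow_succ']

/-- Raising to a power prime to the order, on classes. -/
noncomputable def powClass {k : ℕ} (hk : k.Coprime (Nat.card G)) : Equiv.Perm (ConjClasses G) :=
  Equiv.ofBijective (Quotient.map (· ^ k) fun a b h => by
    obtain ⟨c, hc⟩ := isConj_iff.1 h
    exact isConj_iff.2 ⟨c, by rw [← conj_pow, hc]⟩) <| by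
    refine Finite.surjective_iff_bijective.1 fun C => ?_
    obtain ⟨g, rfl⟩ := ConjClasses.exists_rep C
    obtain ⟨m, hm⟩ := exists_pow_eq_self_of_coprime (hk.coprime_dvd_right (orderOf_dvd_natCard g))
    refine ⟨ConjClasses.mk (g ^ m), congrArg ConjClasses.mk ?_⟩
    show (g ^ m) ^ k = g
    rw [← pow_mul, mul_comm, pow_mul, hm]

theorem powClass_mk {k : ℕ} (hk : k.Coprime (Nat.card G)) (g : G) :
    powClass hk (ConjClasses.mk g) = ConjClasses.mk (g ^ k) := rfl

theorem powClass_iterate {k : ℕ} (hk : k.Coprime (Nat.card G)) (i : ℕ) (g : G) :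
    (powClass hk ^ i) (ConjClasses.mk g) = ConjClasses.mk (g ^ k ^ i) := by
  induction i generalizing g with
  | zero => simp
  | succ i ih => rw [pow_succ, Equiv.Perm.mul_apply, powClass_mk, ih, ← pow_mul, pow_succ']

/-- Brauer's permutation lemma for the powers. -/
theorem card_fixed {k : ℕ} (hk : k.Coprime (Nat.card G)) (i : ℕ) :
    Nat.card {χ : IrrCharacter G // (powPerm hk ^ i) χ = χ} =
      Nat.card {C : ConjClasses G // (powClass hk ^ i) C = C} := by
  have h := Clifford.brauer_perm (powPerm hk ^ i).symm (powClass hk ^ i) fun χ g g' hg => by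
    obtain ⟨g₀, hg₀⟩ : ∃ x, x = g ^ k ^ i := ⟨_, rfl⟩
    rw [powClass_iterate, ← hg₀, ConjClasses.mk_eq_mk_iff_isConj] at hg
    rw [apply_isConj (isCharacter_of_irr ((powPerm hk ^ i).symm χ).2) hg, hg₀, ← powPerm_iterate hk i,
      Equiv.apply_symm_apply]
  rw [← h]
  refine Nat.card_congr (Equiv.subtypeEquivRight fun χ => ?_)
  rw [Equiv.symm_apply_eq]
  exact eq_comm

/-- Equal power sums of roots of unity have the same members. -/
theorem exists_eq_of_sums {d N : ℕ} (hN : N ≠ 0) (lam : Fin d → ℂ) (hl : ∀ i, lam i ^ N = 1) {K : ℕ}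
    (h : ∀ t : ℕ, ∑ i, lam i ^ t = ∑ i, (lam i ^ K) ^ t) (i₀ : Fin d) : ∃ i, lam i = lam i₀ ^ K := by
  classical
  by_contra hne
  push_neg at hne
  set c := lam i₀ ^ K with hc
  have hcN : c ^ N = 1 := by rw [hc, ← pow_mul, mul_comm, pow_mul, hl, one_pow]
  have hc0 : c ≠ 0 := fun e => by rw [e, zero_pow hN] at hcN; exact zero_ne_one hcN
  have hgeom : ∀ w : ℂ, w ^ N = 1 → ∑ t ∈ Finset.range N, (w / c) ^ t = if w = c then (N : ℂ) else 0 := by
    intro w hw
    split_ifs with e
    · rw [e, div_self hc0]; simp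
    · have h1 : (w / c) ≠ 1 := fun e' => e ((div_eq_one_iff_eq hc0).1 e')
      rw [geom_sum_eq h1, div_pow, hw, hcN, div_one, sub_self, zero_div]
  have h2 : ∑ i, (if lam i = c then (N : ℂ) else 0) = ∑ i, (if lam i ^ K = c then (N : ℂ) else 0) := by
    rw [← Finset.sum_congr rfl (fun i _ => hgeom (lam i) (hl i)),
      ← Finset.sum_congr rfl (fun i _ => hgeom (lam i ^ K) (by rw [← pow_mul, mul_comm, pow_mul, hl, one_pow])),
      Finset.sum_comm, Finset.sum_comm (s := (Finset.univ : Finset (Fin d)))]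
    refine Finset.sum_congr rfl fun t _ => ?_
    simp only [div_pow, ← Finset.sum_div]
    rw [h t]
  rw [Finset.sum_eq_zero fun i _ => if_neg (hne i)] at h2
  have h3 : (0 : ℕ) = ∑ i, (if lam i ^ K = c then N else 0) := by
    have : ((0 : ℕ) : ℂ) = ((∑ i, (if lam i ^ K = c then N else 0) : ℕ) : ℂ) := by
      push_cast; exact h2
    exact_mod_cast this
  have h4 := Finset.single_le_sum (f := fun i => if lam i ^ K = c then N else 0) (fun i _ => Nat.zero_le _)
    (Finset.mem_univ i₀)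
  simp only [← hc, if_true] at h4
  omega

/-- Eigenvalues of a fixed faithful character of degree less than `p` at an element with non-trivial `p`-part. -/
theorem eigen_shape {p : ℕ} [Fact p.Prime] {χ : G → ℂ} (hχ : IsCharacter G χ) (hd : charDegree χ < p)
    (hfaith : ∀ g : G, χ g = χ 1 → g = 1) (K : ℕ → ℕ) (hfix : ∀ j, ¬ p ∣ j → ∀ g, χ (g ^ K j) = χ g)
    (g : G) (A : ℕ) (hp' : ∃ e, orderOf (g ^ A) = p ^ e) (hA1 : g ^ A ≠ 1)
    (hK : ∀ j, ¬ p ∣ j → (g ^ A) ^ K j = (g ^ A) ^ j) :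
    charDegree χ = p - 1 ∧ ∃ ω : ℂ, ω ^ orderOf g = 1 ∧ ω ^ A ≠ 1 ∧ (ω ^ A) ^ p = 1 ∧
      ∀ t : ℕ, χ (g ^ t) = ∑ j : Fin (p - 1), (ω ^ K (j + 1)) ^ t := by
  classical
  have hp : p.Prime := Fact.out
  obtain ⟨lam, hl, hv⟩ := exists_eigen hχ g
  obtain ⟨i₀, hi₀⟩ : ∃ i, lam i ^ A ≠ 1 := by
    by_contra h
    push_neg at h
    refine hA1 (hfaith _ ?_)
    rw [hv, Finset.sum_congr rfl fun i _ => h i, apply_one hχ]
    simp
  set ω := lam i₀ with hω
  have hmem : ∀ j : Fin (p - 1), ∃ i, lam i = ω ^ K (j + 1) := fun j => by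
    have hj : ¬ p ∣ (j : ℕ) + 1 := fun h => by
      have := Nat.le_of_dvd (Nat.succ_pos _) h
      omega
    refine exists_eq_of_sums (orderOf_pos g).ne' lam hl (fun t => ?_) i₀
    rw [← hv, ← hfix _ hj (g ^ t), ← pow_mul, hv]
    exact Finset.sum_congr rfl fun i _ => by rw [← pow_mul, mul_comm]
  choose f hf using hmem
  -- the `p`-part of the eigenvalue
  obtain ⟨e, he⟩ := hp'
  have hωo : (ω ^ A) ^ orderOf (g ^ A) = 1 := by
    rw [← pow_mul]
    have hd' : orderOf g ∣ A * orderOf (g ^ A) := orderOf_dvd_of_pow_eq_one (by rw [pow_mul, pow_orderOf_eq_one])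
    obtain ⟨c, hc⟩ := hd'
    rw [hc, pow_mul, hl, one_pow]
  obtain ⟨e', -, hoe⟩ := (Nat.dvd_prime_pow hp).1 (he ▸ orderOf_dvd_of_pow_eq_one hωo)
  have hpo : p ∣ orderOf (ω ^ A) := by
    rcases Nat.eq_zero_or_pos e' with rfl | h
    · rw [pow_zero, orderOf_eq_one_iff] at hoe; exact absurd hoe hi₀
    · exact hoe ▸ dvd_pow_self p h.ne'
  have hKω : ∀ j : ℕ, ¬ p ∣ j → (ω ^ K j) ^ A = (ω ^ A) ^ j := by
    intro j hj
    rw [← pow_mul, mul_comm, pow_mul]
    exact pow_congr' hωo (pow_eq_pow_iff_modEq.1 (hK j hj))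
  have hnd : ∀ j : Fin (p - 1), ¬ p ∣ (j : ℕ) + 1 := fun j h => by
    have := Nat.le_of_dvd (Nat.succ_pos _) h
    omega
  have hinj : Function.Injective f := by
    intro a b hab
    have h1 : (ω ^ A) ^ ((a : ℕ) + 1) = (ω ^ A) ^ ((b : ℕ) + 1) := by
      rw [← hKω _ (hnd a), ← hKω _ (hnd b), ← hf a, ← hf b, hab]
    have h2 := (modEq_of_pow_eq (orderOf_pos (g ^ A)) hωo h1).of_dvd hpo
    have := Nat.ModEq.eq_of_lt_of_lt h2 (by omega) (by omega)
    exact Fin.ext (by omega)
  have hle := Fintype.card_le_of_injective f hinj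
  rw [Fintype.card_fin, Fintype.card_fin] at hle
  have hdeg : charDegree χ = p - 1 := by omega
  have hbij : Function.Bijective f :=
    (Fintype.bijective_iff_injective_and_card f).2 ⟨hinj, by simp [hdeg]⟩
  refine ⟨hdeg, ω, hl i₀, hi₀, ?_, fun t => ?_⟩
  · by_contra hne
    have h2 : 2 ≤ e' := by
      by_contra h
      refine hne ?_
      rw [← orderOf_dvd_iff_pow_eq_one, hoe]
      exact (pow_dvd_pow p (show e' ≤ 1 by omega)).trans (pow_one p).dvd
    -- one more eigenvalue
    have hj : ¬ p ∣ p + 1 := fun h => hp.one_lt.ne' (Nat.dvd_one.1 ((Nat.dvd_add_right dvd_rfl).1 h))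
    obtain ⟨i, hi⟩ := exists_eq_of_sums (orderOf_pos g).ne' lam hl (K := K (p + 1)) (fun t => by
      rw [← hv, ← hfix _ hj (g ^ t), ← pow_mul, hv]
      exact Finset.sum_congr rfl fun i _ => by rw [← pow_mul, mul_comm]) i₀
    obtain ⟨b, rfl⟩ := hbij.2 i
    have h1 : (ω ^ A) ^ (p + 1) = (ω ^ A) ^ ((b : ℕ) + 1) := by
      rw [← hKω _ hj, ← hKω _ (hnd b), ← hi, hf b]
    have h3 := (modEq_of_pow_eq (orderOf_pos (g ^ A)) hωo h1).of_dvd (hoe ▸ pow_dvd_pow p h2)
    have hlt : p + 1 < p ^ 2 := by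
      have := hp.two_le
      nlinarith
    have := Nat.ModEq.eq_of_lt_of_lt h3 hlt (by omega)
    omega
  · rw [hv, ← (Equiv.ofBijective f hbij).sum_comp]
    exact Finset.sum_congr rfl fun j _ => by rw [Equiv.ofBijective_apply, hf]

/-- There is no simple example. -/
theorem false_of_simple {p : ℕ} [Fact p.Prime] [IsSimpleGroup G] (hna : ¬ IsMulCommutative G) (hp2 : p ≠ 2)
    (hpG : p ∣ Nat.card G) (hb : ∀ χ : IrrCharacter G, charDegree (χ : G → ℂ) < p) : False := by
  classical
  have hp : p.Prime := Fact.out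
  haveI := Fintype.ofFinite G
  haveI : Fintype (IrrCharacter G) := @Fintype.ofFinite _ finite_irrCharacter
  haveI := Fintype.ofFinite (ConjClasses G)
  have hcen : Subgroup.center G = ⊥ := (Subgroup.Normal.eq_bot_or_eq_top inferInstance).resolve_right fun h =>
    hna ⟨⟨fun a b => (Subgroup.mem_center_iff.1 (h ▸ Subgroup.mem_top a) b).symm⟩⟩
  set a := p ^ (Nat.card G).factorization p with ha
  set r := Nat.card G / a with hr
  have har : Nat.card G = a * r := (Nat.mul_div_cancel' (Nat.ordProj_dvd _ _)).symm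
  have hpr : ¬ p ∣ r := Nat.not_dvd_ordCompl hp Nat.card_pos.ne'
  have hpa : p ∣ a := dvd_pow_self p (hp.factorization_pos_of_dvd Nat.card_pos.ne' hpG).ne'
  have hcop : a.Coprime r := Nat.Coprime.pow_left _ ((hp.coprime_iff_not_dvd).2 hpr)
  haveI : IsCyclic (ZMod a)ˣ := ha ▸ ZMod.isCyclic_units_of_prime_pow p hp hp2 _
  haveI : NeZero a := ⟨(pow_pos hp.pos _).ne'⟩
  obtain ⟨g₀, hg₀⟩ := IsCyclic.exists_generator (α := (ZMod a)ˣ)
  obtain ⟨k, hk, hka, hkr⟩ := BrauerInd.exists_pow_part (G := G) a r (g₀ : ZMod a).val har hcop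
    (ZMod.val_coe_unit_coprime g₀)
  have hreg : ∀ g : G, ¬ p ∣ orderOf g → ∀ i, g ^ k ^ i = g := by
    intro g hg i
    induction i with
    | zero => simp
    | succ i ih =>
      rw [pow_succ, pow_mul, ih]
      exact hkr g (Nat.Coprime.pow_right _ ((hp.coprime_iff_not_dvd.2 hg).symm))
  have hsing : ∀ u : G, (∃ e, orderOf u = p ^ e) → orderOf u ∣ a := by
    rintro u ⟨e, he⟩
    rw [he]
    refine (Nat.Coprime.pow_left e ((hp.coprime_iff_not_dvd).2 hpr)).dvd_of_dvd_mul_right ?_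
    rw [← he, ← har]
    exact orderOf_dvd_natCard u
  have hkpow : ∀ u : G, orderOf u ∣ a → ∀ i, u ^ k ^ i = u ^ (g₀ : ZMod a).val ^ i := by
    intro u hu i
    have h1 := pow_eq_pow_iff_modEq.1 (hka u hu)
    exact pow_eq_pow_iff_modEq.2 (h1.pow i)
  have hgen : ∀ j : ℕ, ¬ p ∣ j → ∃ i : ℕ, ∀ u : G, orderOf u ∣ a → u ^ k ^ i = u ^ j := by
    intro j hj
    have hja : j.Coprime a := Nat.Coprime.pow_right _ (hp.coprime_iff_not_dvd.2 hj).symm
    obtain ⟨i, hi⟩ := (mem_powers_iff_mem_zpowers (x := g₀)).2 (hg₀ (ZMod.unitOfCoprime j hja))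
    refine ⟨i, fun u hu => ?_⟩
    rw [hkpow u hu, pow_eq_pow_iff_modEq]
    refine Nat.ModEq.of_dvd hu ((ZMod.natCast_eq_natCast_iff _ _ _).1 ?_)
    have := congrArg Units.val hi
    simp only [Units.val_pow_eq_pow_val, ZMod.coe_unitOfCoprime] at this
    rw [← this]
    simp
  choose! K hK using hgen
  -- a regular element
  obtain ⟨y, hy1, hy⟩ : ∃ y : G, y ≠ 1 ∧ ¬ p ∣ orderOf y := by
    by_contra h
    push_neg at h
    have hP : IsPGroup p G := by
      refine IsPGroup.of_card (n := (Nat.card G).factorization p) ?_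
      suffices r = 1 by rw [this, mul_one] at har; exact har.trans ha
      by_contra hr1
      obtain ⟨q, hq, hqr⟩ := Nat.exists_prime_and_dvd hr1
      haveI := Fact.mk hq
      obtain ⟨z, hz⟩ := exists_prime_orderOf_dvd_card' (G := G) q (hqr.trans (har ▸ dvd_mul_left r a))
      have hz1 : z ≠ 1 := fun e => hq.ne_one (by rw [← hz, e, orderOf_one])
      have := h z hz1
      rw [hz, Nat.prime_dvd_prime_iff_eq hp hq] at this
      exact hpr (this ▸ hqr)
    haveI : Nontrivial G := IsSimpleGroup.toNontrivial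
    exact Subgroup.nontrivial_iff_ne_bot _ |>.1 hP.center_nontrivial hcen
  set π := powPerm hk with hπ
  set τ := powClass hk with hτ
  have hτreg : ∀ g : G, ¬ p ∣ orderOf g → ∀ i, (τ ^ i) (ConjClasses.mk g) = ConjClasses.mk g := fun g hg i => by
    rw [hτ, powClass_iterate, hreg g hg]
  have hπone : ∀ i, (π ^ i) oneChar = oneChar := fun i => Subtype.ext (funext fun g => by
    rw [hπ, powPerm_iterate]; rfl)
  -- a non-principal fixed character
  obtain ⟨χ₀, hχ₀, hχ₀1⟩ : ∃ χ, π χ = χ ∧ χ ≠ oneChar := by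
    by_contra h
    push_neg at h
    have h1 : Nat.card {χ : IrrCharacter G // (π ^ 1) χ = χ} ≤ 1 := by
      rw [Finite.card_le_one_iff_subsingleton]
      exact ⟨fun x y => Subtype.ext ((h x (by simpa using x.2)).trans (h y (by simpa using y.2)).symm)⟩
    rw [card_fixed hk 1, Finite.card_le_one_iff_subsingleton] at h1
    have h2 := @Subsingleton.elim _ h1 ⟨_, hτreg 1 (by rw [orderOf_one]; exact hp.not_dvd_one) 1⟩ ⟨_, hτreg y hy 1⟩
    exact hy1 (isConj_one_right.1 (ConjClasses.mk_eq_mk_iff_isConj.1 (congrArg Subtype.val h2)))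
  -- fixed characters are rigid
  have hfaith : ∀ χ : IrrCharacter G, χ ≠ oneChar → ∀ g : G, (χ : G → ℂ) g = (χ : G → ℂ) 1 → g = 1 := by
    intro χ hχ g hg
    rcases Subgroup.Normal.eq_bot_or_eq_top (charKer_normal (isCharacter_of_irr χ.2)) with h | h
    · rw [← Subgroup.mem_bot, ← h, mem_charKer]; exact hg
    · exfalso
      haveI := χ.2
      have hconst : ∀ x : G, (χ : G → ℂ) x = (χ : G → ℂ) 1 := fun x =>
        (mem_charKer (isCharacter_of_irr χ.2) x).1 (h ▸ Subgroup.mem_top x)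
      have h1 := classInner_self χ.2
      have h2 := classInner_ne χ.2 oneChar.2 (fun e => hχ (Subtype.ext e))
      rw [classInner_eq] at h2
      simp only [hconst, oneChar_apply, map_one, mul_one, Finset.sum_const, nsmul_eq_mul, mul_eq_zero,
        inv_eq_zero, Finset.card_univ] at h2
      rcases h2 with h2 | h2 | h2
      · exact Nat.card_pos.ne' (by exact_mod_cast h2)
      · exact Fintype.card_ne_zero (by exact_mod_cast h2)
      · exact apply_one_ne_zero χ.2 h2
  have hfixK : ∀ χ : IrrCharacter G, π χ = χ → ∀ j g, (χ : G → ℂ) (g ^ k ^ j) = (χ : G → ℂ) g := by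
    intro χ hχ j g
    have : (π ^ j) χ = χ := by
      induction j with
      | zero => simp
      | succ j ih => rw [pow_succ, Equiv.Perm.mul_apply, hχ, ih]
    rw [← powPerm_iterate hk, ← hπ, this]
  have hshape : ∀ χ : IrrCharacter G, π χ = χ → χ ≠ oneChar → ∀ (g : G) (A : ℕ),
      (∃ e, orderOf (g ^ A) = p ^ e) → g ^ A ≠ 1 →
      charDegree (χ : G → ℂ) = p - 1 ∧ ∃ ω : ℂ, ω ^ orderOf g = 1 ∧ ω ^ A ≠ 1 ∧ (ω ^ A) ^ p = 1 ∧
        ∀ t : ℕ, (χ : G → ℂ) (g ^ t) = ∑ j : Fin (p - 1), (ω ^ k ^ K (j + 1)) ^ t :=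
    fun χ h h1 g A hA hA1 => eigen_shape (isCharacter_of_irr χ.2) (hb χ) (hfaith χ h1) (fun j => k ^ K j)
      (fun j _ x => hfixK χ h _ x) g A hA hA1 (fun j hj => hK j hj _ (hsing _ hA))
  -- values at `p`-elements
  have hval : ∀ χ : IrrCharacter G, π χ = χ → χ ≠ oneChar → ∀ u : G, (∃ e, orderOf u = p ^ e) → u ≠ 1 →
      charDegree (χ : G → ℂ) = p - 1 ∧ orderOf u = p ∧ (χ : G → ℂ) u = -1 := by
    intro χ h h1 u hu hu1
    obtain ⟨hd, ω, -, hω1, hωp, hsum⟩ := hshape χ h h1 u 1 (by simpa using hu) (by simpa using hu1)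
    rw [pow_one] at hω1 hωp
    have ho : orderOf ω = p := orderOf_eq_prime hωp hω1
    have hKω : ∀ j : Fin (p - 1), ω ^ k ^ K ((j : ℕ) + 1) = ω ^ ((j : ℕ) + 1) := fun j => by
      have hj : ¬ p ∣ (j : ℕ) + 1 := fun hd' => by have := Nat.le_of_dvd (Nat.succ_pos _) hd'; omega
      have h2 := pow_eq_pow_iff_modEq.1 (hK _ hj u (hsing u hu))
      obtain ⟨e, he⟩ := hu
      refine pow_congr' hωp (h2.of_dvd ?_)
      rw [he]
      exact dvd_pow_self p fun e0 => hu1 (orderOf_eq_one_iff.1 (by rw [he, e0, pow_zero]))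
    refine ⟨hd, orderOf_eq_prime ?_ hu1, ?_⟩
    · refine hfaith χ h1 _ ?_
      rw [hsum p, apply_one (isCharacter_of_irr χ.2), hd, Finset.sum_congr rfl fun j _ => show _ = (1 : ℂ) by
        rw [hKω, ← pow_mul, mul_comm, pow_mul, hωp, one_pow]]
      simp
    · have hs := hsum 1
      simp only [pow_one, hKω] at hs
      rw [hs, Fin.sum_univ_eq_sum_range (fun j => ω ^ (j + 1))]
      have hz : IsPrimitiveRoot ω p := ho ▸ IsPrimitiveRoot.orderOf ω
      have h0 := hz.geom_sum_eq_zero hp.one_lt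
      rw [show p = p - 1 + 1 by have := hp.pos; omega, Finset.sum_range_succ'] at h0
      linear_combination h0
  -- the Sylow subgroup has order `p`
  obtain ⟨P⟩ : Nonempty (Sylow p G) := inferInstance
  haveI := Fintype.ofFinite (P : Subgroup G)
  have hPcard : Nat.card (P : Subgroup G) = p := by
    obtain ⟨x, hx⟩ := exists_prime_orderOf_dvd_card' (G := G) p hpG
    have hd := (hval χ₀ hχ₀ hχ₀1 x ⟨1, by rw [hx, pow_one]⟩ fun e => hp.ne_one (by rw [← hx, e, orderOf_one])).1
    obtain ⟨z, hz⟩ := classInner_character_nat (isCharacter_restrict (isCharacter_of_irr χ₀.2) (P : Subgroup G))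
      (oneChar (G := (P : Subgroup G)))
    rw [classInner_eq, ← Finset.add_sum_erase _ _ (Finset.mem_univ (1 : (P : Subgroup G))),
      Finset.sum_congr rfl fun u hu => show _ = (-1 : ℂ) by
        obtain ⟨e, he⟩ := P.2 u
        obtain ⟨e', -, he'⟩ := (Nat.dvd_prime_pow hp).1 (orderOf_dvd_of_pow_eq_one he)
        have := (hval χ₀ hχ₀ hχ₀1 (u : G) ⟨e', by rw [Subgroup.orderOf_coe, he']⟩
          fun e => (Finset.mem_erase.1 hu).1 (Subtype.ext e)).2.2
        simp [oneChar_apply, this]] at hz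
    simp only [Finset.sum_const, Finset.card_erase_of_mem (Finset.mem_univ _), oneChar_apply, map_one, mul_one,
      nsmul_eq_mul, Subgroup.coe_one, apply_one (isCharacter_of_irr χ₀.2), hd, Finset.card_univ,
      ← Nat.card_eq_fintype_card] at hz
    set N := Nat.card (P : Subgroup G) with hN
    have hN0 : 0 < N := Nat.card_pos
    rw [inv_mul_eq_iff_eq_mul₀ (Nat.cast_ne_zero.2 hN0.ne'), Nat.cast_sub hN0, Nat.cast_sub hp.one_lt.le] at hz
    have hz' : ((p : ℕ) : ℂ) = ((N * (z + 1) : ℕ) : ℂ) := by push_cast at hz ⊢; linear_combination hz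
    have hdvd : N ∣ p := ⟨z + 1, Nat.cast_injective hz'⟩
    refine ((Nat.dvd_prime hp).1 hdvd).resolve_left fun h1 => ?_
    exact P.ne_bot_of_dvd_card hpG (Subgroup.card_eq_one.1 h1)
  obtain ⟨x, hx⟩ := exists_prime_orderOf_dvd_card' (G := G) p hpG
  have hx1 : x ≠ 1 := fun e => hp.ne_one (by rw [← hx, e, orderOf_one])
  have hnsq : ¬ p ^ 2 ∣ Nat.card G := fun h => by
    have h1 := P.pow_dvd_card_of_pow_dvd_card h
    rw [hPcard] at h1
    have := Nat.le_of_dvd hp.pos h1
    nlinarith [hp.two_le]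
  have hcard_p : ∀ H : Subgroup G, IsPGroup p H → x ∈ H → H = Subgroup.zpowers x := by
    intro H hH hxH
    refine (Subgroup.eq_of_le_of_card_ge (Subgroup.zpowers_le.2 hxH) ?_).symm
    obtain ⟨e, he⟩ := hH.exists_card_eq
    rw [Nat.card_zpowers, hx, he]
    calc p ^ e ≤ p ^ 1 := Nat.pow_le_pow_right hp.pos <| by
          by_contra h
          exact hnsq ((pow_dvd_pow p (show 2 ≤ e by omega)).trans (he ▸ H.card_subgroup_dvd_card))
      _ = p := pow_one p
  -- centralizer
  have hC : ∀ g : G, Commute g x → g ∈ Subgroup.zpowers x := by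
    intro g hg
    have horder : orderOf g = p ^ (orderOf g).factorization p * (orderOf g / p ^ (orderOf g).factorization p) :=
      (Nat.mul_div_cancel' (Nat.ordProj_dvd _ _)).symm
    set w := g ^ p ^ (orderOf g).factorization p with hw
    have hwreg : ¬ p ∣ orderOf w := by
      rw [hw, orderOf_pow' _ (pow_pos hp.pos _).ne', Nat.gcd_eq_right (Nat.ordProj_dvd _ _)]
      exact Nat.not_dvd_ordCompl hp (orderOf_pos g).ne'
    have hw1 : w = 1 := by
      by_contra hw1
      have hwx : Commute w x := hg.pow_left _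
      obtain ⟨A, hA0, hA1⟩ := Nat.chineseRemainder ((hp.coprime_iff_not_dvd).2 hwreg) 1 0
      have hxA : (w * x) ^ A = x := by
        rw [hwx.mul_pow, show w ^ A = 1 from orderOf_dvd_iff_pow_eq_one.1 (Nat.modEq_zero_iff_dvd.1 hA1), one_mul]
        conv_rhs => rw [← pow_one x]
        rw [pow_eq_pow_iff_modEq, hx]; exact hA0
      obtain ⟨B, hB0, hB1⟩ := Nat.chineseRemainder ((hp.coprime_iff_not_dvd).2 hwreg) 0 1
      have hwB : (w * x) ^ B = w := by
        rw [hwx.mul_pow, show x ^ B = 1 from orderOf_dvd_iff_pow_eq_one.1 (hx ▸ Nat.modEq_zero_iff_dvd.1 hB0),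
          mul_one]
        conv_rhs => rw [← pow_one w]
        rw [pow_eq_pow_iff_modEq]; exact hB1
      obtain ⟨hd, ω, hωo, -, -, hsum⟩ := hshape χ₀ hχ₀ hχ₀1 (w * x) A ⟨1, by rw [hxA, hx, pow_one]⟩ (by rwa [hxA])
      have hq : (ω ^ B) ^ orderOf w = 1 := by
        obtain ⟨c, hc⟩ : orderOf (w * x) ∣ B * orderOf w := orderOf_dvd_of_pow_eq_one (by
          rw [pow_mul, hwB, pow_orderOf_eq_one])
        rw [← pow_mul, hc, pow_mul, hωo, one_pow]
      have hv := hsum B
      rw [hwB, Finset.sum_congr rfl fun j _ => show _ = ω ^ B by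
        rw [← pow_mul, mul_comm, pow_mul]
        conv_rhs => rw [← pow_one (ω ^ B)]
        refine pow_congr' hq ?_
        rw [← pow_eq_pow_iff_modEq, pow_one]
        exact hreg w hwreg _] at hv
      have hn : ‖(χ₀ : G → ℂ) w‖ = (charDegree (χ₀ : G → ℂ) : ℝ) := by
        have h1 : ‖ω ^ B‖ = 1 := Complex.norm_eq_one_of_pow_eq_one hq (orderOf_pos w).ne'
        rw [hv, Finset.sum_const, Finset.card_univ, Fintype.card_fin, nsmul_eq_mul, norm_mul, h1, mul_one,
          Complex.norm_natCast, hd]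
      refine hw1 ?_
      rw [← Subgroup.mem_bot, ← hcen, Subgroup.mem_center_iff]
      intro z
      have := hfaith χ₀ hχ₀1 _ (commutator_mem_charKer χ₀.2 hn z)
      calc z * w = (z * w * z⁻¹ * w⁻¹) * (w * z) := by group
        _ = w * z := by rw [this, one_mul]
    have hgp : IsPGroup p (Subgroup.zpowers g) := by
      obtain ⟨e', -, he'⟩ := (Nat.dvd_prime_pow hp).1 (orderOf_dvd_of_pow_eq_one (hw ▸ hw1))
      exact IsPGroup.of_card (n := e') (by rw [Nat.card_zpowers, he'])
    rw [← hcard_p (Subgroup.zpowers x ⊔ Subgroup.zpowers g) (IsPGroup.to_sup_of_normal_right'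
      (IsPGroup.of_card (n := 1) (by rw [Nat.card_zpowers, hx, pow_one])) hgp ?_)
      (Subgroup.mem_sup_left (Subgroup.mem_zpowers x))]
    · exact Subgroup.mem_sup_right (Subgroup.mem_zpowers g)
    · rw [Subgroup.zpowers_le, Subgroup.mem_normalizer_iff]
      intro z
      constructor
      · intro hz
        obtain ⟨i, rfl⟩ := Subgroup.mem_zpowers_iff.1 hz
        rw [show x * g ^ i * x⁻¹ = g ^ i by rw [← (hg.zpow_left i).eq, mul_inv_cancel_right]]
        exact hz
      · intro hz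
        obtain ⟨i, hi⟩ := Subgroup.mem_zpowers_iff.1 hz
        rw [show z = x⁻¹ * g ^ i * x by rw [hi]; group,
          show x⁻¹ * g ^ i * x = g ^ i by rw [mul_assoc, (hg.zpow_left i).eq, inv_mul_cancel_left]]
        exact Subgroup.zpow_mem _ (Subgroup.mem_zpowers g) i
  -- singular elements
  have hsx : ∀ g : G, p ∣ orderOf g → ∃ j : ℕ, ¬ p ∣ j ∧ IsConj g (x ^ j) := by
    intro g hg
    set u := g ^ (orderOf g / p) with hu
    have huo : orderOf u = p := by
      rw [hu, orderOf_pow' _ (Nat.div_pos (Nat.le_of_dvd (orderOf_pos g) hg) hp.pos).ne',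
        Nat.gcd_eq_right (Nat.div_dvd_of_dvd hg), Nat.div_div_self hg (orderOf_pos g).ne']
    obtain ⟨Q, hQ⟩ := (IsPGroup.of_card (n := 1) (by rw [Nat.card_zpowers, huo, pow_one]) :
      IsPGroup p (Subgroup.zpowers u)).exists_le_sylow
    obtain ⟨R, hR⟩ := (IsPGroup.of_card (n := 1) (by rw [Nat.card_zpowers, hx, pow_one]) :
      IsPGroup p (Subgroup.zpowers x)).exists_le_sylow
    obtain ⟨c, hc⟩ := MulAction.exists_smul_eq G Q R
    have hcu : c * u * c⁻¹ ∈ Subgroup.zpowers x := by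
      rw [← hcard_p _ R.2 (hR (Subgroup.mem_zpowers x)), ← hc]
      refine ⟨u, hQ (Subgroup.mem_zpowers u), ?_⟩
      simp
    have hcu1 : c * u * c⁻¹ ≠ 1 := fun e => by
      rw [conj_eq_one_iff] at e
      rw [e, orderOf_one] at huo; exact hp.ne_one huo.symm
    have hcomm : Commute (c * g * c⁻¹) (c * u * c⁻¹) := (Commute.self_pow g _).map (MulAut.conj c).toMonoidHom
    have hxu : x ∈ Subgroup.zpowers (c * u * c⁻¹) := by
      have hle : Subgroup.zpowers (c * u * c⁻¹) = Subgroup.zpowers x :=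
        Subgroup.eq_of_le_of_card_ge (Subgroup.zpowers_le.2 hcu) (by
          rw [Nat.card_zpowers, Nat.card_zpowers, hx,
            show orderOf (c * u * c⁻¹) = p from ((MulAut.conj c).orderOf_eq u).trans huo])
      rw [hle]; exact Subgroup.mem_zpowers x
    obtain ⟨i, hi⟩ := Subgroup.mem_zpowers_iff.1 hxu
    obtain ⟨j, hj⟩ := (mem_powers_iff_mem_zpowers (x := x)).2 (hC (c * g * c⁻¹) (hi ▸ hcomm.zpow_right i))
    refine ⟨j, fun hd => ?_, isConj_iff.2 ⟨c, hj.symm⟩⟩
    have : x ^ j = 1 := orderOf_dvd_iff_pow_eq_one.1 (hx.symm ▸ hd)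
    rw [show x ^ j = c * g * c⁻¹ from hj, conj_eq_one_iff] at this
    rw [this, orderOf_one] at hg
    exact hp.not_dvd_one hg
  -- the fixed classes
  let I : ℕ → Prop := fun i => IsConj (x ^ k ^ i) x
  have hIadd : ∀ i j, I i → I j → I (i + j) := fun i j hi hj => by
    show IsConj (x ^ k ^ (i + j)) x
    rw [pow_add, pow_mul]
    obtain ⟨c, hc⟩ := isConj_iff.1 hi
    exact (isConj_iff.2 ⟨c, by rw [← conj_pow, hc]⟩).trans hj
  have hall : ∀ i, I i → ∀ χ : IrrCharacter G, (π ^ i) χ = χ := by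
    intro i hi
    have hcl : ∀ C : ConjClasses G, (τ ^ i) C = C := by
      intro C
      obtain ⟨g, rfl⟩ := ConjClasses.exists_rep C
      by_cases hg : p ∣ orderOf g
      · obtain ⟨j, -, hj⟩ := hsx g hg
        rw [ConjClasses.mk_eq_mk_iff_isConj.2 hj, hτ, powClass_iterate, ConjClasses.mk_eq_mk_iff_isConj, ← pow_mul,
          mul_comm, pow_mul]
        obtain ⟨c, hc⟩ := isConj_iff.1 hi
        exact isConj_iff.2 ⟨c, by rw [← conj_pow, hc]⟩
      · exact hτreg g hg i
    have h := card_fixed hk i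
    rw [Nat.card_congr (Equiv.subtypeUnivEquiv fun C => hcl C), ← card_irr] at h
    intro χ
    by_contra hne
    have hlt : Nat.card {χ : IrrCharacter G // (π ^ i) χ = χ} < Nat.card (IrrCharacter G) := by
      rw [Nat.card_eq_fintype_card, Nat.card_eq_fintype_card]
      exact Fintype.card_subtype_lt hne
    exact hlt.ne h
  have hI1 : ¬ I 1 := by
    intro h1
    have hall1 : ∀ χ : IrrCharacter G, π χ = χ := fun χ => by simpa using hall 1 h1 χ
    have hs := sum_mul_degree hx1
    rw [← Finset.add_sum_erase _ _ (Finset.mem_univ oneChar),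
      Finset.sum_congr rfl fun χ hχ => show _ = ((p - 1 : ℕ) : ℂ) * (-1) by
        obtain ⟨h2, -, h3⟩ := hval χ (hall1 χ) (Finset.mem_erase.1 hχ).1 x ⟨1, by rw [hx, pow_one]⟩ hx1
        rw [h2, h3]] at hs
    have hone : charDegree ((oneChar : IrrCharacter G) : G → ℂ) = 1 := by
      exact_mod_cast (apply_one (isCharacter_of_irr oneChar.2)).symm.trans (oneChar_apply (1 : G))
    rw [hone, oneChar_apply, Nat.cast_one, one_mul, Finset.sum_const, nsmul_eq_mul] at hs
    set F := (Finset.univ.erase (oneChar : IrrCharacter G)).card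
    have h4 : ((F * (p - 1) : ℕ) : ℂ) = ((1 : ℕ) : ℂ) := by push_cast; linear_combination -hs
    have h5 : F * (p - 1) = 1 := Nat.cast_injective h4
    have := Nat.eq_one_of_mul_eq_one_left h5
    have := hp.two_le
    omega
  have hIp : I (p - 1) := by
    show IsConj (x ^ k ^ (p - 1)) x
    have hkp : k.Coprime p := hk.coprime_dvd_right hpG
    rw [show x ^ k ^ (p - 1) = x ^ 1 from pow_eq_pow_iff_modEq.2 (by
      rw [hx]
      have := Nat.ModEq.pow_totient hkp
      rwa [Nat.totient_prime hp] at this), pow_one]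
  have hex : ∃ i, 0 < i ∧ I i := ⟨p - 1, by have := hp.two_le; omega, hIp⟩
  set M := Nat.find hex with hM
  obtain ⟨hM0, hIM⟩ := Nat.find_spec hex
  rw [← hM] at hM0 hIM
  have hM1 : M ≠ 1 := fun h => hI1 (h ▸ hIM)
  have hMdvd : M ∣ p - 1 := by
    by_contra hnd
    have hrem : 0 < (p - 1) % M := Nat.pos_of_ne_zero fun h => hnd (Nat.dvd_of_mod_eq_zero h)
    have hImul : ∀ n, I (M * n) := by
      intro n
      induction n with
      | zero => show IsConj (x ^ k ^ (M * 0)) x; simpa using IsConj.refl x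
      | succ n ih => rw [mul_add, mul_one]; exact hIadd _ _ ih hIM
    have h := Nat.find_min hex (show (p - 1) % M < Nat.find hex from Nat.mod_lt _ hM0)
    refine h ⟨hrem, ?_⟩
    have h1 : IsConj (x ^ k ^ ((p - 1) % M + M * ((p - 1) / M))) x := by rw [Nat.mod_add_div]; exact hIp
    refine IsConj.trans ?_ h1
    rw [add_comm, pow_add, pow_mul]
    obtain ⟨c, hc⟩ := isConj_iff.1 (hImul ((p - 1) / M)).symm
    exact isConj_iff.2 ⟨c, by rw [← conj_pow, hc]⟩
  obtain ⟨q, hq, hqM⟩ := Nat.exists_prime_and_dvd hM1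
  haveI := Fact.mk hq
  obtain ⟨e, he⟩ := hqM
  have he0 : 0 < e := Nat.pos_of_ne_zero fun h => hM0.ne' (by rw [he, h, mul_zero])
  have heI : ¬ I e := fun h => Nat.find_min hex (show e < M by
    rw [he]; exact (lt_mul_iff_one_lt_left he0).2 hq.one_lt) ⟨he0, h⟩
  -- fixed characters of the power coincide
  have hfix : ∀ χ : IrrCharacter G, (π ^ e) χ = χ → π χ = χ := by
    have hcl : ∀ C : ConjClasses G, (τ ^ e) C = C ↔ τ C = C := by
      intro C
      obtain ⟨g, rfl⟩ := ConjClasses.exists_rep C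
      by_cases hg : p ∣ orderOf g
      · obtain ⟨j, hj0, hj⟩ := hsx g hg
        rw [ConjClasses.mk_eq_mk_iff_isConj.2 hj]
        have key : ∀ i, (τ ^ i) (ConjClasses.mk (x ^ j)) = ConjClasses.mk (x ^ j) → I i := by
          intro i h
          rw [hτ, powClass_iterate, ConjClasses.mk_eq_mk_iff_isConj, ← pow_mul, mul_comm, pow_mul] at h
          obtain ⟨m, hm⟩ := exists_pow_eq_self_of_coprime (n := j) (x := x)
            (by rw [hx]; exact (hp.coprime_iff_not_dvd.2 hj0).symm)
          obtain ⟨c, hc⟩ := isConj_iff.1 h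
          refine isConj_iff.2 ⟨c, ?_⟩
          have h' := congrArg (· ^ m) hc
          simp only [conj_pow] at h'
          rw [← pow_mul (x ^ k ^ i), ← pow_mul x, ← pow_mul x, mul_comm (k ^ i), pow_mul, pow_mul, hm] at h'
          exact h'
        exact ⟨fun h => absurd (key e h) heI, fun h => absurd (key 1 (by simpa using h)) hI1⟩
      · exact iff_of_true (hτreg g hg e) (by simpa using hτreg g hg 1)
    have hc : Nat.card {χ : IrrCharacter G // π χ = χ} = Nat.card {χ : IrrCharacter G // (π ^ e) χ = χ} := by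
      have h1 := card_fixed hk 1
      simp only [pow_one] at h1
      rw [hπ, h1, card_fixed hk e]
      exact Nat.card_congr (Equiv.subtypeEquivRight fun C => (hcl C).symm)
    have hsub : ∀ χ : IrrCharacter G, π χ = χ → (π ^ e) χ = χ := fun χ hχ => Equiv.Perm.pow_apply_eq_self_of_apply_eq_self hχ e
    intro χ hχ
    let f : {χ : IrrCharacter G // π χ = χ} → {χ : IrrCharacter G // (π ^ e) χ = χ} := fun t => ⟨t.1, hsub _ t.2⟩
    have hf : Function.Injective f := fun a b h => Subtype.ext (congrArg (fun t => t.1) h)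
    obtain ⟨t, ht⟩ := ((Fintype.bijective_iff_injective_and_card f).2
      ⟨hf, by rwa [Nat.card_eq_fintype_card, Nat.card_eq_fintype_card] at hc⟩).2 ⟨χ, hχ⟩
    exact (congrArg (fun t => t.1) ht : t.1 = χ) ▸ t.2
  -- count
  let d : IrrCharacter G → ℕ := fun χ => charDegree (χ : G → ℂ)
  have hdeg : ∀ (i : ℕ) (χ : IrrCharacter G), d ((π ^ i) χ) = d χ := fun i χ => by
    have h : ((d ((π ^ i) χ) : ℕ) : ℂ) = ((d χ : ℕ) : ℂ) := by
      rw [← apply_one (isCharacter_of_irr ((π ^ i) χ).2), ← apply_one (isCharacter_of_irr χ.2), hπ,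
        powPerm_iterate, one_pow]
    exact Nat.cast_injective h
  let Y := {t : IrrCharacter G × Fin p × Fin p // (t.2.1 : ℕ) < d t.1 ∧ (t.2.2 : ℕ) < d t.1}
  let f : Function.End Y := fun t => ⟨((π ^ e) t.1.1, t.1.2), by rw [hdeg]; exact t.2⟩
  have hfi : ∀ (n : ℕ) (t : Y), ((f ^ n) t).1 = ((π ^ (e * n)) t.1.1, t.1.2) := by
    intro n
    induction n with
    | zero => intro t; simp only [pow_zero, mul_zero]; rfl
    | succ n ih =>
      intro t
      rw [pow_succ']
      show (f ((f ^ n) t)).1 = _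
      show ((π ^ e) ((f ^ n) t).1.1, ((f ^ n) t).1.2) = _
      rw [ih, mul_add, mul_one, add_comm (e * n), pow_add, Equiv.Perm.mul_apply]
  have hfq : f ^ q ^ 1 = 1 := by
    funext t
    refine Subtype.ext ?_
    rw [pow_one, hfi, mul_comm, ← he, hall M hIM]
    rfl
  have hmod := Equiv.Perm.card_fixedPoints_modEq hfq
  have hY : Fintype.card Y = Nat.card G := by
    rw [← sum_sq_degree (G := G)]
    let eY : Y ≃ (χ : IrrCharacter G) × (Fin (d χ) × Fin (d χ)) :=
      { toFun := fun t => ⟨t.1.1, ⟨t.1.2.1, t.2.1⟩, ⟨t.1.2.2, t.2.2⟩⟩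
        invFun := fun t => ⟨(t.1, ⟨t.2.1, t.2.1.2.trans (hb t.1)⟩, ⟨t.2.2, t.2.2.2.trans (hb t.1)⟩),
          t.2.1.2, t.2.2.2⟩
        left_inv := fun _ => rfl
        right_inv := fun _ => rfl }
    rw [Fintype.card_congr eY, Fintype.card_sigma]
    simp [d, sq]
  have hpG1 : p - 1 ∣ Nat.card G := by
    rw [← (hval χ₀ hχ₀ hχ₀1 x ⟨1, by rw [hx, pow_one]⟩ hx1).1]
    exact degree_dvd χ₀
  -- fixed points
  have hfp : Nat.card f.fixedPoints ≡ 1 [MOD q] := by
    let W := {χ : IrrCharacter G // π χ = χ ∧ χ ≠ oneChar}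
    let eF : f.fixedPoints ≃ Option (W × Fin (p - 1) × Fin (p - 1)) :=
      { toFun := fun t => if h : t.1.1.1 = oneChar then none else
          some (⟨t.1.1.1, hfix _ (congrArg (fun s : Y => s.1.1) t.2), h⟩,
            ⟨t.1.1.2.1, lt_of_lt_of_eq t.1.2.1 (hval _ (hfix _ (congrArg (fun s : Y => s.1.1) t.2)) h x
              ⟨1, by rw [hx, pow_one]⟩ hx1).1⟩,
            ⟨t.1.1.2.2, lt_of_lt_of_eq t.1.2.2 (hval _ (hfix _ (congrArg (fun s : Y => s.1.1) t.2)) h x
              ⟨1, by rw [hx, pow_one]⟩ hx1).1⟩)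
        invFun := fun s => s.elim
          ⟨⟨(oneChar, ⟨0, hp.pos⟩, ⟨0, hp.pos⟩), charDegree_pos oneChar.2, charDegree_pos oneChar.2⟩,
            Subtype.ext (Prod.ext (hπone e) rfl)⟩
          fun w => ⟨⟨(w.1.1, ⟨w.2.1, by omega⟩, ⟨w.2.2, by omega⟩),
            by
              show _ < d w.1.1 ∧ _ < d w.1.1
              have := (hval _ w.1.2.1 w.1.2.2 x ⟨1, by rw [hx, pow_one]⟩ hx1).1
              exact ⟨lt_of_lt_of_eq w.2.1.2 this.symm, lt_of_lt_of_eq w.2.2.2 this.symm⟩⟩,
            Subtype.ext (Prod.ext (Equiv.Perm.pow_apply_eq_self_of_apply_eq_self w.1.2.1 e) rfl)⟩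
        left_inv := by
          rintro ⟨⟨⟨χ, a', b'⟩, ha', hb'⟩, hfx⟩
          by_cases h : χ = oneChar
          · subst h
            simp only [dite_true, Option.elim]
            have hone : d oneChar = 1 := by
              have := (apply_one (isCharacter_of_irr (oneChar : IrrCharacter G).2)).symm.trans (oneChar_apply (1 : G))
              exact_mod_cast this
            simp only at ha' hb'
            refine Subtype.ext (Subtype.ext (Prod.ext rfl (Prod.ext (Fin.ext ?_) (Fin.ext ?_))))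
            · show 0 = (a' : ℕ); omega
            · show 0 = (b' : ℕ); omega
          · simp only [dif_neg h, Option.elim]
        right_inv := by
          rintro (_ | ⟨⟨χ, hχ, hne⟩, a', b'⟩)
          · simp
          · simp only [Option.elim]; exact dif_neg hne }
    rw [Nat.card_congr eF, Nat.card_eq_fintype_card, Fintype.card_option, Fintype.card_prod, Fintype.card_prod,
      Fintype.card_fin]
    have hqp : q ∣ p - 1 := (Dvd.intro e he.symm).trans hMdvd
    have : q ∣ Fintype.card W * ((p - 1) * (p - 1)) := (hqp.mul_right _).mul_left _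
    exact (Nat.modEq_zero_iff_dvd.2 this).add_right 1
  replace hmod : Fintype.card Y ≡ Nat.card f.fixedPoints [MOD q] := by
    simp only [← Nat.card_eq_fintype_card] at hmod ⊢
    exact hmod
  rw [hY] at hmod
  have hq0 : Nat.card G ≡ 0 [MOD q] :=
    Nat.modEq_zero_iff_dvd.2 (((Dvd.intro e he.symm).trans hMdvd).trans hpG1)
  have : 0 ≡ 1 [MOD q] := hq0.symm.trans (hmod.trans hfp)
  exact hq.not_dvd_one (Nat.modEq_zero_iff_dvd.1 this.symm)

/-- All degrees less than `p` force `p`-solvability. -/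
theorem isPSolvable (p : ℕ) [Fact p.Prime] : ∀ (n : ℕ) (G : Type u) [Group G] [Finite G], Nat.card G = n →
    (∀ χ : IrrCharacter G, charDegree (χ : G → ℂ) < p) → Cfsg.IsPSolvable p G := by
  have hp : p.Prime := Fact.out
  intro n
  induction n using Nat.strong_induction_on with
  | _ n ih =>
  intro G _ _ hn hb
  by_cases hN : ∃ N : Subgroup G, N.Normal ∧ N ≠ ⊥ ∧ N ≠ ⊤
  · obtain ⟨N, hNn, hN1, hN2⟩ := hN
    haveI := hNn
    refine PCore.isPSolvable_of_normal N (ih _ ?_ N rfl fun θ => ?_) (ih _ ?_ (G ⧸ N) rfl fun ψ => ?_)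
    · rw [← hn]
      exact lt_of_le_of_ne (Subgroup.card_le_card_group N) fun h => hN2 (Subgroup.eq_top_of_card_eq N h)
    · obtain ⟨χ, hχ⟩ := ItoConverse.degree_dvd_over N θ
      exact lt_of_le_of_lt (Nat.le_of_dvd (charDegree_pos χ.2) hχ) (hb χ)
    · rw [← hn, Subgroup.card_eq_card_quotient_mul_card_subgroup N]
      exact lt_mul_of_one_lt_right Nat.card_pos ((Subgroup.one_lt_card_iff_ne_bot N).2 hN1)
    · have h := hb ⟨fun x => (ψ : G ⧸ N → ℂ) (QuotientGroup.mk' N x),
        Clifford.isIrrCharacter_comp ψ.2 _ (QuotientGroup.mk'_surjective N)⟩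
      simpa [charDegree] using h
  push_neg at hN
  by_cases hpG : ¬ p ∣ Nat.card G
  · exact PCore.isPSolvable_of_coprime ((hp.coprime_iff_not_dvd.2 hpG).symm)
  rw [not_not] at hpG
  haveI : Nontrivial G := Finite.one_lt_card_iff_nontrivial.1
    (lt_of_lt_of_le hp.one_lt (Nat.le_of_dvd Nat.card_pos hpG))
  haveI : IsSimpleGroup G := ⟨fun N hNn => or_iff_not_imp_left.2 (hN N hNn)⟩
  by_cases hna : IsMulCommutative G
  · haveI : Group.IsSolvable G := Group.isSolvable_of_comm fun a b => hna.1.1 a b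
    exact PCore.isPSolvable_of_isSolvable
  exfalso
  by_cases hp2 : p = 2
  · refine hna (ItoConverse.isMulCommutative_of_all_linear fun χ => ?_)
    have := hb χ
    have := charDegree_pos χ.2
    omega
  exact false_of_simple hna hp2 hpG hb

/-- The normal abelian Sylow subgroup. -/
theorem normal_abelian_sylow (p : ℕ) [Fact p.Prime] (G : Type u) [Group G] [Finite G]
    (hb : ∀ χ : IrrCharacter G, charDegree (χ : G → ℂ) < p) :
    ∃ P : Subgroup G, P.Normal ∧ IsMulCommutative P ∧ IsPGroup p P ∧ ¬ p ∣ P.index :=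
  ItoConverse.normal_abelian_sylow p G (isPSolvable p _ G rfl hb) fun χ h =>
    (hb χ).not_ge (Nat.le_of_dvd (charDegree_pos χ.2) h)

end CfsgLib.SmallDegrees
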